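import Mathlib
import Cfsg.Agent.PLengthExp.TheoremB

/-!
A wreath product `C_p ≀ C_p` section from an element of order `p` with non-zero norm.
-/

set_option autoImplicit false

open scoped IsMulCommutative

namespace CfsgLib.PLengthExp

universe u

open Cfsg

/-- `W` looks like the wreath product of two groups of order `p`. -/
def IsWreathCp (p : ℕ) (W : Type u) [Group W] : Prop :=
  ∃ (B : Subgroup W) (t : W), B.Normal ∧ IsMulCommutative B ∧ (∀ b ∈ B, b ^ p = 1) ∧ Nat.card B = p ^ p ∧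
    orderOf t = p ∧ t ∉ B ∧ Nat.card W = p ^ (p + 1) ∧
      Nat.card ↥(B ⊓ Subgroup.centralizer ({t} : Set W)) = p

/-- Some `p`-subgroup of `K` has a quotient of type `C_p ≀ C_p`. -/
def HasWreath (p : ℕ) (K : Type u) [Group K] : Prop :=
  ∃ (S : Subgroup K) (W : Type u) (_ : Group W) (f : S →* W),
    IsPGroup p S ∧ Function.Surjective f ∧ IsWreathCp p W

theorem HasWreath.of_surjective {p : ℕ} [Fact p.Prime] {G H : Type u} [Group G] [Group H] [Finite G]
    (f : G →* H) (hf : Function.Surjective f) (h : HasWreath p H) : HasWreath p G := by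
  obtain ⟨S, W, instW, g, hS, hg, hW⟩ := h
  obtain ⟨S', hS'⟩ := hS.exists_le_sylow
  haveI : Finite H := Finite.of_surjective f hf
  obtain ⟨T, rfl⟩ := Sylow.mapSurjective_surjective hf p S'
  let T' : Subgroup G := (T : Subgroup G) ⊓ S.comap f
  let φ : T' →* S := MonoidHom.mk' (fun a => ⟨f a, a.2.2⟩) fun a b => Subtype.ext (map_mul f a.1 b.1)
  refine ⟨T', W, instW, g.comp φ, T.isPGroup'.to_le inf_le_left, hg.comp fun s => ?_, hW⟩
  obtain ⟨a, ha, has⟩ := hS' s.2
  exact ⟨⟨a, ha, show f a ∈ S from has ▸ s.2⟩, Subtype.ext has⟩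

section Core

/-- Exponent `p` gives a module structure. -/
@[instance_reducible] noncomputable def modOfExp {p : ℕ} {V : Type*} [AddCommGroup V] (h : ∀ a : V, p • a = 0) :
    Module (ZMod p) V :=
  AddCommGroup.zmodModule h

variable {K : Type u} [Group K] [Finite K] {p : ℕ} [hp : Fact p.Prime]

theorem hasWreath_of_norm {V : Subgroup K} [V.Normal] (hab : ∀ a ∈ V, ∀ b ∈ V, a * b = b * a)
    (hexp : ∀ a ∈ V, a ^ p = 1) {x : K} (hx : x ∉ V) (hxp : x ^ p ∈ V) {v : K} (hv : v ∈ V)
    (hN : (v * x) ^ p ≠ x ^ p) : HasWreath p K := by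
  classical
  have hp0 : p.Prime := hp.out
  haveI : IsMulCommutative V := ⟨⟨fun a b => Subtype.ext (hab _ a.2 _ b.2)⟩⟩
  have hz : ∀ a : Additive ↥V, p • a = 0 := fun a => by
    refine Additive.toMul.injective ?_
    show (Additive.toMul a) ^ p = 1
    exact Subtype.ext (hexp _ (Additive.toMul a).2)
  letI : Module (ZMod p) (Additive ↥V) := modOfExp hz
  let T : Module.End (ZMod p) (Additive ↥V) :=
    (MulEquiv.toAdditive (MulAut.conjNormal x : MulAut V)).toAddMonoidHom.toZModLinearMap p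
  have hT : ∀ (i : ℕ) (a : Additive ↥V),
      ((Additive.toMul ((T ^ i) a) : V) : K) = x ^ i * (Additive.toMul a : V) * (x ^ i)⁻¹ := by
    intro i a
    induction i with
    | zero => simp
    | succ i ih =>
      rw [pow_succ', Module.End.mul_apply]
      show ((MulAut.conjNormal x (Additive.toMul ((T ^ i) a)) : V) : K) = _
      rw [MulAut.conjNormal_apply, ih, pow_succ']; group
  set D := T - 1 with hD
  have hTp : T ^ p = 1 := by
    refine LinearMap.ext fun a => Additive.toMul.injective (Subtype.ext ?_)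
    rw [hT, hab _ hxp _ (Additive.toMul a).2, mul_inv_cancel_right]
    rfl
  have hDp : D ^ p = 0 := by
    have h := congrArg (Polynomial.aeval T) (sub_pow_char (p := p) (Polynomial.X : Polynomial (ZMod p)) 1)
    simp only [map_pow, map_sub, Polynomial.aeval_X, map_one, one_pow] at h
    rw [hD, h, hTp, sub_self]
  set a₀ : Additive ↥V := Additive.ofMul ⟨v, hv⟩ with ha₀
  have hsum : D ^ (p - 1) = ∑ i ∈ Finset.range p, T ^ i := by
    simpa [hD] using sub_one_pow_eq_sum (ZMod p) (p := p) T 1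
  have hnorm : ((Additive.toMul ((D ^ (p - 1)) a₀) : V) : K) * x ^ p = (v * x) ^ p := by
    obtain ⟨hm, hf⟩ := map_mul_pow V (MonoidHom.id V) hv x p
    rw [hsum, LinearMap.sum_apply, toMul_sum]
    have h1 : ∏ i ∈ Finset.range p, Additive.toMul ((T ^ i) a₀) = (⟨_, hm⟩ : V) := by
      refine Eq.trans (Finset.prod_congr rfl fun i _ => Subtype.ext ?_) hf.symm
      rw [hT]
      rfl
    rw [h1]
    exact inv_mul_cancel_right _ _
  have hne : (D ^ (p - 1)) a₀ ≠ 0 := by
    intro h
    rw [h, toMul_zero, OneMemClass.coe_one, one_mul] at hnorm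
    exact hN hnorm.symm
  -- the regular submodule
  let φ : (Fin p → ZMod p) →ₗ[ZMod p] Additive ↥V :=
    Fintype.linearCombination (ZMod p) (fun j : Fin p => (D ^ (j : ℕ)) a₀)
  have hφ : ∀ c, φ c = ∑ j : Fin p, c j • (D ^ (j : ℕ)) a₀ := fun c => Fintype.linearCombination_apply _ _ _
  have hbig : ∀ k, p ≤ k → (D ^ k) a₀ = 0 := fun k hk => by
    obtain ⟨d, rfl⟩ := Nat.exists_eq_add_of_le hk
    rw [pow_add, hDp, zero_mul, LinearMap.zero_apply]
  have hzero : ∀ c, φ c = 0 → c = 0 := by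
    intro c hc
    by_contra hc0
    obtain ⟨j, hj, hjmin⟩ : ∃ j : Fin p, c j ≠ 0 ∧ ∀ i : Fin p, (i : ℕ) < j → c i = 0 := by
      obtain ⟨i, hi⟩ := Function.ne_iff.1 hc0
      have hex : ∃ m, ∃ h : m < p, c ⟨m, h⟩ ≠ 0 := ⟨i, i.2, hi⟩
      obtain ⟨h, hh⟩ := Nat.find_spec hex
      refine ⟨⟨Nat.find hex, h⟩, hh, fun k hk => ?_⟩
      by_contra hk0
      exact Nat.find_min hex hk ⟨k.2, hk0⟩
    have h1 := congrArg (D ^ (p - 1 - (j : ℕ))) hc
    rw [hφ, map_sum, map_zero, Finset.sum_eq_single j] at h1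
    · rw [map_smul, ← Module.End.mul_apply, ← pow_add, show p - 1 - (j : ℕ) + j = p - 1 by omega] at h1
      exact hne ((smul_eq_zero.1 h1).resolve_left hj)
    · intro i _ hij
      rcases lt_trichotomy (i : ℕ) (j : ℕ) with h | h | h
      · rw [hjmin i h, zero_smul, map_zero]
      · exact absurd (Fin.ext h) hij
      · rw [map_smul, ← Module.End.mul_apply, ← pow_add, hbig _ (by omega), smul_zero]
    · simp
  have hinj : Function.Injective φ := fun a b hab' =>
    sub_eq_zero.1 (hzero _ (by rw [map_sub, hab', sub_self]))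
  let B : Subgroup K :=
    { carrier := {b | ∃ c, ((Additive.toMul (φ c) : V) : K) = b}
      one_mem' := ⟨0, by simp⟩
      mul_mem' := by
        rintro _ _ ⟨c, rfl⟩ ⟨d, rfl⟩
        exact ⟨c + d, by rw [map_add, toMul_add, Subgroup.coe_mul]⟩
      inv_mem' := by
        rintro _ ⟨c, rfl⟩
        exact ⟨-c, by rw [map_neg, toMul_neg, Subgroup.coe_inv]⟩ }
  have hBV : B ≤ V := by rintro _ ⟨c, rfl⟩; exact (Additive.toMul (φ c) : V).2
  have hBcard : Nat.card B = p ^ p := by
    have e : (Fin p → ZMod p) ≃ B := Equiv.ofBijective (fun c => ⟨_, c, rfl⟩)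
      ⟨fun a b h => hinj (Additive.toMul.injective (Subtype.ext (congrArg (fun b : B => (b : K)) h))),
        fun b => by obtain ⟨c, hc⟩ := b.2; exact ⟨c, Subtype.ext hc⟩⟩
    rw [← Nat.card_congr e, Nat.card_fun, Nat.card_fin, Nat.card_zmod]
  -- the action on the submodule
  let sh : (Fin p → ZMod p) → (Fin p → ZMod p) := fun c i =>
    if h : 0 < (i : ℕ) then c ⟨i - 1, by omega⟩ else 0
  have hsh : ∀ c, D (φ c) = φ (sh c) := by
    intro c
    rw [hφ, hφ, map_sum]
    obtain ⟨m, rfl⟩ : ∃ m, p = m + 1 := ⟨p - 1, by have := hp0.pos; omega⟩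
    rw [Fin.sum_univ_castSucc, Fin.sum_univ_succ (f := fun j => sh c j • (D ^ (j : ℕ)) a₀)]
    have hlast : D (c (Fin.last m) • (D ^ ((Fin.last m : Fin (m + 1)) : ℕ)) a₀) = 0 := by
      rw [map_smul, ← Module.End.mul_apply, ← pow_succ', Fin.val_last, hDp, LinearMap.zero_apply, smul_zero]
    have h0 : sh c 0 = 0 := by simp [sh]
    rw [hlast, add_zero, h0, zero_smul, zero_add]
    refine Finset.sum_congr rfl fun j _ => ?_
    have hj : sh c j.succ = c j.castSucc := by
      simp [sh, Fin.castSucc, Fin.castAdd, Fin.castLE]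
    rw [hj, map_smul, ← Module.End.mul_apply, ← pow_succ', Fin.val_succ, Fin.val_castSucc]
  have hxB : ∀ b ∈ B, x * b * x⁻¹ ∈ B := by
    rintro _ ⟨c, rfl⟩
    refine ⟨sh c + c, ?_⟩
    have h1 : T (φ c) = φ (sh c + c) := by
      rw [map_add, ← hsh, hD, LinearMap.sub_apply, Module.End.one_apply, sub_add_cancel]
    have h2 := hT 1 (φ c)
    rw [pow_one, pow_one, h1] at h2
    exact h2
  set nv : K := ((Additive.toMul ((D ^ (p - 1)) a₀) : V) : K) with hnv
  have hlastmem : nv ∈ B := by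
    refine ⟨Pi.single ⟨p - 1, by have := hp0.pos; omega⟩ 1, ?_⟩
    rw [Fintype.linearCombination_apply_single, one_smul]
  have hcent : ∀ b ∈ B, x * b * x⁻¹ = b → b ∈ Subgroup.zpowers nv := by
    rintro _ ⟨c, rfl⟩ hb
    have h2 := hT 1 (φ c)
    rw [pow_one, pow_one, hb] at h2
    have h3 : D (φ c) = 0 := by
      rw [hD, LinearMap.sub_apply, Module.End.one_apply, sub_eq_zero]
      exact Additive.toMul.injective (Subtype.ext h2)
    rw [hsh] at h3
    have h4 := hzero _ h3
    obtain ⟨m, hm⟩ : ∃ m : Fin p, (m : ℕ) = p - 1 := ⟨⟨p - 1, by have := hp0.pos; omega⟩, rfl⟩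
    have hc : c = Pi.single m (c m) := by
      funext i
      by_cases him : i = m
      · subst him; rw [Pi.single_eq_same]
      · rw [Pi.single_eq_of_ne him]
        have hi : (i : ℕ) + 1 < p := by
          have := i.2
          rcases Nat.lt_or_ge ((i : ℕ) + 1) p with h | h
          · exact h
          · exact absurd (Fin.ext (by omega)) him
        have := congrFun h4 ⟨i + 1, hi⟩
        simp only [sh] at this
        rw [dif_pos (Nat.succ_pos _)] at this
        simpa using this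
    rw [hc, Fintype.linearCombination_apply_single, hm]
    refine ⟨((c m).val : ℤ), ?_⟩
    show nv ^ ((c m).val : ℤ) = _
    rw [zpow_natCast, hnv]
    conv_rhs => rw [← ZMod.natCast_zmod_val (c m), Nat.cast_smul_eq_nsmul, toMul_nsmul]
    rw [Subgroup.coe_pow]
  -- choice of the complement element
  obtain ⟨t, htV, htB, htp, htBZ⟩ : ∃ t : K, t ∉ V ∧ (∀ b ∈ V, x * b * x⁻¹ = t * b * t⁻¹) ∧ t ^ p ∈ V ∧
      B ⊓ Subgroup.zpowers (t ^ p) = ⊥ := by
    have hcases : ∀ i : ℕ, nv ^ i * x ^ p ∈ V := fun i =>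
      mul_mem (pow_mem (hBV hlastmem) i) hxp
    by_cases hxB' : x ^ p ∈ B
    · obtain ⟨i, hi⟩ := hcent _ hxB' (by rw [← pow_succ', pow_succ, mul_inv_cancel_right])
      have hp1 : nv ^ p = 1 := hexp _ (hBV hlastmem)
      obtain ⟨j, hj⟩ : ∃ j : ℕ, nv ^ j * x ^ p = 1 := by
        refine ⟨((-i) % (p : ℤ)).toNat, ?_⟩
        rw [← zpow_natCast, Int.toNat_of_nonneg (Int.emod_nonneg _ (by exact_mod_cast hp0.ne_zero)), ← hi,
          ← zpow_add]
        have : nv ^ ((p : ℤ)) = 1 := by rw [zpow_natCast, hp1]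
        obtain ⟨q, hq⟩ : (p : ℤ) ∣ (-i) % (p : ℤ) + i := by
          have := Int.emod_add_mul_ediv (-i) (p : ℤ)
          exact ⟨-((-i) / (p : ℤ)), by linarith⟩
        rw [hq, zpow_mul, this, one_zpow]
      refine ⟨v ^ j * x, fun h => hx ?_, fun b hb => ?_, ?_, ?_⟩
      · simpa using mul_mem (inv_mem (pow_mem hv j)) h
      · rw [show v ^ j * x * b * (v ^ j * x)⁻¹ = v ^ j * (x * b * x⁻¹) * (v ^ j)⁻¹ by group,
          hab _ (pow_mem hv j) _ (Subgroup.Normal.conj_mem inferInstance b hb x), mul_inv_cancel_right]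
      all_goals
        have ht1 : (v ^ j * x) ^ p = 1 := by
          obtain ⟨hm, hf⟩ := map_mul_pow V (MonoidHom.id V) (pow_mem hv j) x p
          obtain ⟨hm', hf'⟩ := map_mul_pow V (MonoidHom.id V) hv x p
          have e : (⟨_, hm⟩ : V) = (⟨_, hm'⟩ : V) ^ j := by
            refine hf.trans ?_
            rw [← MonoidHom.id_apply (M := V) ⟨_, hm'⟩, hf', ← Finset.prod_pow]
            refine Finset.prod_congr rfl fun i _ => Subtype.ext ?_
            simp [conj_pow]
          have e' := congrArg Subtype.val e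
          simp only [Subgroup.coe_pow, ← hnorm, mul_inv_cancel_right] at e'
          rw [mul_inv_eq_iff_eq_mul] at e'
          rw [e', hj]
        first
          | (rw [ht1]; exact one_mem _)
          | (rw [ht1, Subgroup.zpowers_one_eq_bot, inf_bot_eq])
    · refine ⟨x, hx, fun b _ => rfl, hxp, ?_⟩
      rw [eq_bot_iff]
      rintro b ⟨hb, hb'⟩
      obtain ⟨i, rfl⟩ := hb'
      by_contra hne'
      have hord : orderOf (x ^ p) = p :=
        orderOf_eq_prime (hexp _ hxp) fun h => hxB' (h ▸ one_mem B)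
      haveI : Fact (Nat.card (Subgroup.zpowers (x ^ p))).Prime := ⟨by rw [Nat.card_zpowers, hord]; exact hp0⟩
      rcases Subgroup.eq_bot_or_eq_top_of_prime_card (B.subgroupOf (Subgroup.zpowers (x ^ p))) with h | h
      · refine hne' (Subgroup.mem_bot.2 ?_)
        have h5 : (⟨(x ^ p) ^ i, i, rfl⟩ : Subgroup.zpowers (x ^ p)) ∈
            B.subgroupOf (Subgroup.zpowers (x ^ p)) := hb
        rw [h, Subgroup.mem_bot] at h5
        exact congrArg Subtype.val h5
      · exact hxB' (Subgroup.subgroupOf_eq_top.1 h (Subgroup.mem_zpowers _))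
  -- the section
  set S := B ⊔ Subgroup.zpowers t with hS
  have hnB : ∀ g ∈ S, ∀ b ∈ B, g * b * g⁻¹ ∈ B := by
    have hle : S ≤ Subgroup.normalizer (B : Set K) := by
      refine sup_le Subgroup.le_normalizer (Subgroup.zpowers_le.2 ?_)
      rw [Subgroup.mem_normalizer_iff_map_conj_eq]
      refine Subgroup.eq_of_le_of_card_ge ?_
        (Subgroup.card_map_of_injective (f := (MulAut.conj t).toMonoidHom) (MulAut.conj t).injective).ge
      rintro _ ⟨b, hb, rfl⟩
      show t * b * t⁻¹ ∈ B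
      rw [← htB b (hBV hb)]
      exact hxB b hb
    exact fun g hg b hb => (Subgroup.mem_normalizer_iff.1 (hle hg) b).1 hb
  set Z := (Subgroup.zpowers (t ^ p)).subgroupOf S with hZ
  have htS : t ∈ S := Subgroup.mem_sup_right (Subgroup.mem_zpowers t)
  haveI hZn : Z.Normal := by
    refine ⟨fun z hz g => ?_⟩
    rw [Subgroup.mem_subgroupOf] at hz ⊢
    have hle : S ≤ Subgroup.centralizer ({(z : K)} : Set K) := by
      have hzV : (z : K) ∈ V := Subgroup.zpowers_le.2 htp hz
      refine sup_le (fun b hb => Subgroup.mem_centralizer_singleton_iff.2 (hab _ (hBV hb) _ hzV))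
        (Subgroup.zpowers_le.2 (Subgroup.mem_centralizer_singleton_iff.2 ?_))
      obtain ⟨i, hi⟩ := hz
      rw [← hi]
      exact ((Commute.refl t).pow_right p).zpow_right i
    rw [Subgroup.coe_mul, Subgroup.coe_mul, Subgroup.coe_inv,
      Subgroup.mem_centralizer_singleton_iff.1 (hle g.2), mul_inv_cancel_right]
    exact hz
  let f : S →* S ⧸ Z := QuotientGroup.mk' Z
  set B' := (B.subgroupOf S).map f with hB'
  set t' : S ⧸ Z := f ⟨t, htS⟩ with ht'
  haveI hB'n : B'.Normal := by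
    refine Subgroup.Normal.map ⟨fun b hb g => ?_⟩ _ (QuotientGroup.mk'_surjective Z)
    rw [Subgroup.mem_subgroupOf] at hb ⊢
    exact hnB g g.2 _ hb
  have hfB : ∀ a b : S, (a : K) ∈ B → (b : K) ∈ B → f a = f b → a = b := by
    intro a b ha hb h
    have h1 : (a⁻¹ * b : S) ∈ Z := QuotientGroup.eq.1 h
    rw [Subgroup.mem_subgroupOf] at h1
    have h2 : ((a⁻¹ * b : S) : K) ∈ B ⊓ Subgroup.zpowers (t ^ p) := Subgroup.mem_inf.2 ⟨mul_mem (inv_mem ha) hb, h1⟩
    rw [htBZ, Subgroup.mem_bot] at h2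
    exact inv_mul_eq_one.1 (Subtype.ext h2)
  have hBS : B ≤ S := le_sup_left
  have hB'card : Nat.card B' = p ^ p := by
    rw [← hBcard, ← Nat.card_congr (Subgroup.subgroupOfEquivOfLe hBS).toEquiv]
    refine (Nat.card_congr (Equiv.ofBijective (fun a : B.subgroupOf S => (⟨f a, a, a.2, rfl⟩ : B')) ⟨?_, ?_⟩)).symm
    · exact fun a b h => Subtype.ext (hfB a b a.2 b.2 (congrArg Subtype.val h))
    · rintro ⟨_, a, ha, rfl⟩
      exact ⟨⟨a, ha⟩, rfl⟩
  have ht'B : t' ∉ B' := by
    rintro ⟨a, ha, hat⟩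
    have h1 : (a⁻¹ * ⟨t, htS⟩ : S) ∈ Z := QuotientGroup.eq.1 hat
    rw [Subgroup.mem_subgroupOf, Subgroup.coe_mul, Subgroup.coe_inv] at h1
    refine htV ?_
    simpa using mul_mem (hBV ha) (Subgroup.zpowers_le.2 htp h1)
  have ht'p : t' ^ p = 1 := by
    rw [ht', ← map_pow]
    exact (QuotientGroup.eq_one_iff _).2 (by
      rw [Subgroup.mem_subgroupOf, Subgroup.coe_pow]; exact Subgroup.mem_zpowers _)
  have ht'o : orderOf t' = p := orderOf_eq_prime ht'p fun h => ht'B (h ▸ one_mem B')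
  have htop : B' ⊔ Subgroup.zpowers t' = ⊤ := by
    have h1 : B.subgroupOf S ⊔ Subgroup.zpowers (⟨t, htS⟩ : S) = ⊤ := by
      apply Subgroup.map_injective S.subtype_injective
      rw [Subgroup.map_sup, Subgroup.map_subgroupOf_eq_of_le hBS, MonoidHom.map_zpowers,
        ← MonoidHom.range_eq_map, Subgroup.range_subtype]
      rfl
    rw [← Subgroup.map_top_of_surjective f (QuotientGroup.mk'_surjective Z), ← h1, Subgroup.map_sup,
      MonoidHom.map_zpowers]
  have hinf : B' ⊓ Subgroup.zpowers t' = ⊥ := by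
    haveI : Fact (Nat.card (Subgroup.zpowers t')).Prime := ⟨by rw [Nat.card_zpowers, ht'o]; exact hp0⟩
    rcases Subgroup.eq_bot_or_eq_top_of_prime_card (B'.subgroupOf (Subgroup.zpowers t')) with h | h
    · rwa [Subgroup.subgroupOf_eq_bot, disjoint_iff] at h
    · exact absurd (Subgroup.subgroupOf_eq_top.1 h (Subgroup.mem_zpowers t')) ht'B
  have hWcard : Nat.card (S ⧸ Z) = p ^ (p + 1) := by
    have hc := (Subgroup.isComplement'_of_disjoint_and_mul_eq_univ (disjoint_iff.2 hinf) (by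
      rw [← Subgroup.normal_mul, htop]; rfl)).card_mul
    rw [hB'card, Nat.card_zpowers, ht'o] at hc
    rw [← hc, pow_succ]
  have hSp : IsPGroup p S := by
    refine (IsPGroup.of_card (G := S) (n := (Nat.card S).primeFactorsList.length) ?_)
    refine Nat.eq_prime_pow_of_unique_prime_dvd (Nat.card_pos (α := S)).ne' fun {d} hd hdd => ?_
    by_contra hdp
    have hdvd : Nat.card S = Nat.card (S ⧸ Z) * Nat.card Z := Subgroup.card_eq_card_quotient_mul_card_subgroup Z
    rw [hdvd] at hdd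
    rcases hd.dvd_mul.1 hdd with h | h
    · rw [hWcard] at h
      exact hdp ((Nat.prime_dvd_prime_iff_eq hd hp0).1 (hd.dvd_of_dvd_pow h))
    · have h1 : Nat.card Z ∣ p := by
        rw [hZ, Nat.card_congr (Subgroup.subgroupOfEquivOfLe (Subgroup.zpowers_le.2 (pow_mem htS p))).toEquiv,
          Nat.card_zpowers]
        exact orderOf_dvd_of_pow_eq_one (hexp _ htp)
      exact hdp ((Nat.prime_dvd_prime_iff_eq hd hp0).1 (h.trans h1))
  refine ⟨S, S ⧸ Z, inferInstance, f, hSp, QuotientGroup.mk'_surjective Z, B', t', hB'n, ?_, ?_, hB'card,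
    ht'o, ht'B, hWcard, ?_⟩
  · refine ⟨⟨?_⟩⟩
    rintro ⟨_, a, ha, rfl⟩ ⟨_, b, hb, rfl⟩
    refine Subtype.ext ?_
    show f a * f b = f b * f a
    rw [← map_mul, ← map_mul]
    exact congrArg f (Subtype.ext (hab _ (hBV ha) _ (hBV hb)))
  · rintro _ ⟨a, ha, rfl⟩
    rw [← map_pow, show a ^ p = 1 from Subtype.ext (hexp _ (hBV ha)), map_one]
  · have hnvV : nv ∈ V := hBV hlastmem
    have hnvfix : x * nv * x⁻¹ = nv := by
      have h := hT 1 ((D ^ (p - 1)) a₀)
      rw [pow_one, pow_one] at h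
      rw [hnv, ← h]
      have : T ((D ^ (p - 1)) a₀) = (D ^ (p - 1)) a₀ := by
        have h0 : D ((D ^ (p - 1)) a₀) = 0 := by
          rw [← Module.End.mul_apply, ← pow_succ', Nat.sub_add_cancel hp0.pos, hDp, LinearMap.zero_apply]
        rwa [hD, LinearMap.sub_apply, Module.End.one_apply, sub_eq_zero] at h0
      rw [this]
    have hnvne : nv ≠ 1 := fun h => hne (Additive.toMul.injective (Subtype.ext h))
    have hnvS : nv ∈ S := hBS hlastmem
    have heq : B' ⊓ Subgroup.centralizer ({t'} : Set (S ⧸ Z)) = Subgroup.zpowers (f ⟨nv, hnvS⟩) := by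
      apply le_antisymm
      · rintro _ ⟨⟨a, ha, rfl⟩, hc⟩
        have hc1 : f a * t' = t' * f a := Subgroup.mem_centralizer_singleton_iff.1 hc
        have h1 : f (⟨t, htS⟩ * a * ⟨t, htS⟩⁻¹) = f a := by
          rw [map_mul, map_mul, map_inv, ← ht', ← hc1, mul_inv_cancel_right]
        have h2 := congrArg Subtype.val (hfB _ _ (hnB t htS _ ha) ha h1)
        obtain ⟨i, hi⟩ := hcent _ ha (by rw [htB _ (hBV ha)]; exact h2)
        refine ⟨i, ?_⟩
        show f ⟨nv, hnvS⟩ ^ i = f a
        rw [← map_zpow]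
        exact congrArg f (Subtype.ext (by rw [Subgroup.coe_zpow]; exact hi))
      · refine Subgroup.zpowers_le.2 ⟨⟨⟨nv, hnvS⟩, hlastmem, rfl⟩, Subgroup.mem_centralizer_singleton_iff.2 ?_⟩
        rw [ht', ← map_mul, ← map_mul]
        refine congrArg f (Subtype.ext ?_)
        show nv * t = t * nv
        calc nv * t = (t * nv * t⁻¹) * t := by rw [← htB _ hnvV, hnvfix]
          _ = t * nv := inv_mul_cancel_right _ _
    rw [heq, Nat.card_zpowers]
    refine orderOf_eq_prime (by rw [← map_pow, show (⟨nv, hnvS⟩ : S) ^ p = 1 from Subtype.ext (hexp _ hnvV), map_one])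
      fun h => hnvne (congrArg Subtype.val (hfB ⟨nv, hnvS⟩ 1 hlastmem (one_mem B) (h.trans (map_one f).symm)))

end Core

end CfsgLib.PLengthExp
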